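import Mathlib
import Cfsg.Agent.Lib.Helper48.Ami.TopDefs

/-!
# AMI (S4294), package [TOPM]: in characteristic zero the factor `M` of `S × M` is trivial
-/

set_option autoImplicit false

universe u

namespace Cfsg.Agent.Lib.Helper93.Ami

open Cfsg.Agent.Lib.Helper48.AmiTop

/-- the coercion `↥S → D` as a monoid homomorphism -/
def toD {D : Type u} [DivisionRing D] (H : Subgroup Dˣ) (S : Subgroup ↥H) : ↥S →* D :=
  (Units.coeHom D).comp (H.subtype.comp S.subtype)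

theorem toD_apply {D : Type u} [DivisionRing D] (H : Subgroup Dˣ) (S : Subgroup ↥H) (s : ↥S) :
    toD H S s = (((s : ↥H) : Dˣ) : D) := rfl

theorem toD_injective {D : Type u} [DivisionRing D] (H : Subgroup Dˣ) (S : Subgroup ↥H) :
    Function.Injective (toD H S) := by
  intro s t h
  exact Subtype.ext (Subtype.ext (Units.ext h))

/-- the image of the central involution is `-1` -/
theorem psi_neg_one {D : Type u} [DivisionRing D] (ψ : SL25 →* D) (hψ : Function.Injective ψ)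
    (hneg1 : (-1 : SL25) ≠ 1) (hnegsq : (-1 : SL25) * (-1 : SL25) = 1) : ψ (-1) = -1 := by
  have h1 : ψ (-1) * ψ (-1) = 1 := by rw [← map_mul, hnegsq, map_one]
  have h2 : ψ (-1) ≠ 1 := fun h => hneg1 (hψ (h.trans (map_one ψ).symm))
  have h3 : (ψ (-1) - 1) * (ψ (-1) + 1) = 0 := by
    have h4 : (ψ (-1) - 1) * (ψ (-1) + 1) = ψ (-1) * ψ (-1) - 1 := by noncomm_ring
    rw [h4, h1, sub_self]
  rcases mul_eq_zero.mp h3 with h | h
  · exact absurd (sub_eq_zero.mp h) h2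
  · exact eq_neg_of_add_eq_zero_left h

theorem pkgTopM_of (hC : PkgMCore.{u}) (hB : PkgMBasic) : PkgTopM.{u} := by
  intro D _ _ H S M hcomm hne hMfin hcop
  obtain ⟨e⟩ := hne
  by_contra hM
  obtain ⟨hAA, hAX, hX5, hX1, hneg1, hnegsq, hKK, hAK⟩ := hB
  let ψ : SL25 →* D := (toD H S).comp e.symm.toMonoidHom
  have hψ : Function.Injective ψ := (toD_injective H S).comp e.symm.injective
  have hz : ψ (-1) = -1 := psi_neg_one ψ hψ hneg1 hnegsq
  have haa : ψ mA * ψ mA = -1 := by rw [← map_mul, hAA, hz]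
  have hainv : ψ mA⁻¹ = (ψ mA)⁻¹ := by
    apply eq_inv_of_mul_eq_one_left
    rw [← map_mul, inv_mul_cancel, map_one]
  have hax : ((ψ mA)⁻¹ * ψ mX) ^ 3 = -1 := by
    rw [← hainv, ← map_mul, ← map_pow, hAX, hz]
  have hx5 : ψ mX ^ 5 = 1 := by rw [← map_pow, hX5, map_one]
  have hx1 : ψ mX ≠ 1 := fun h => hX1 (hψ (h.trans (map_one ψ).symm))
  have hk : ψ mK = ψ mX ^ 2 * ψ mA * ψ mX ^ 3 * ψ mA * ψ mX ^ 2 := by
    simp only [mK, map_mul, map_pow]
  have hkk : (ψ mX ^ 2 * ψ mA * ψ mX ^ 3 * ψ mA * ψ mX ^ 2) *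
      (ψ mX ^ 2 * ψ mA * ψ mX ^ 3 * ψ mA * ψ mX ^ 2) = -1 := by
    rw [← hk, ← map_mul, hKK, hz]
  have hak : ψ mA * (ψ mX ^ 2 * ψ mA * ψ mX ^ 3 * ψ mA * ψ mX ^ 2) =
      -((ψ mX ^ 2 * ψ mA * ψ mX ^ 3 * ψ mA * ψ mX ^ 2) * ψ mA) := by
    rw [← hk, ← map_mul, hAK, map_mul, hz, map_mul, neg_one_mul]
  -- a prime `p ≥ 7` dividing `|M|`
  have hcard1 : Nat.card M ≠ 1 := fun h1 => hM (Subgroup.eq_bot_of_card_eq M h1)
  have hpp : (Nat.card M).minFac.Prime := Nat.minFac_prime hcard1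
  have hpd : (Nat.card M).minFac ∣ Nat.card M := Nat.minFac_dvd _
  have hp30 : ¬ (Nat.card M).minFac ∣ 30 := fun h =>
    hpp.ne_one (Nat.eq_one_of_dvd_coprimes hcop hpd h)
  generalize (Nat.card M).minFac = p at hpp hpd hp30
  have hp7 : 7 ≤ p := by
    by_contra hlt
    have hlt' : p < 7 := not_le.mp hlt
    interval_cases p
    · exact absurd hpp (by norm_num)
    · exact absurd hpp (by norm_num)
    · exact hp30 (by norm_num)
    · exact hp30 (by norm_num)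
    · exact absurd hpp (by norm_num)
    · exact hp30 (by norm_num)
    · exact absurd hpp (by norm_num)
  have : Fact p.Prime := ⟨hpp⟩
  obtain ⟨c, hc⟩ := exists_prime_orderOf_dvd_card' (G := M) p hpd
  have hcp : ((((c : ↥H) : Dˣ) : D)) ^ p = 1 := by
    have h1 : c ^ p = 1 := by rw [← hc]; exact pow_orderOf_eq_one c
    have h2 := congrArg (fun m : M => (((m : ↥H) : Dˣ) : D)) h1
    simpa using h2
  have hc1 : ((((c : ↥H) : Dˣ) : D)) ≠ 1 := by
    intro h
    have h1 : c = 1 := Subtype.ext (Subtype.ext (Units.ext h))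
    rw [h1, orderOf_one] at hc
    omega
  have hcs : ∀ s : ↥S, Commute ((((c : ↥H) : Dˣ) : D)) (toD H S s) := by
    intro s
    have h1 := hcomm (s : ↥H) s.2 (c : ↥H) c.2
    have h2 := congrArg (fun h : ↥H => ((h : Dˣ) : D)) h1
    simp only [Subgroup.coe_mul, Units.val_mul] at h2
    exact h2.symm
  exact hC D (ψ mA) (ψ mX) ((((c : ↥H) : Dˣ) : D)) p hpp hp7 haa hax hx5 hx1 hkk hak
    (hcs _) (hcs _) hcp hc1

end Cfsg.Agent.Lib.Helper93.Ami
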